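import Cfsg.Agent.H2.Bab

/-! A sharper lower bound for the distinguishing sets of a simply primitive group. -/

set_option autoImplicit false

namespace Cfsg.Agent.H1.Ch

open MulAction Finset H2.Bab

variable {X Ω : Type} [Group X] [MulAction X Ω] [Fintype Ω]

theorem D_self (u : Ω) : D X u u = ∅ := eq_empty_of_forall_notMem fun z hz => mD.1 hz ((ce z).refl u)

open Classical in
variable (X) in
/-- the neighbours of `v` -/
noncomputable def Nb (μ : ℕ) (v : Ω) : Finset Ω := univ.filter fun u => v ≠ u ∧ #(D X v u) ≤ μ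

theorem mN {μ : ℕ} {u v : Ω} : u ∈ Nb X μ v ↔ v ≠ u ∧ #(D X v u) ≤ μ := by simp [Nb]

theorem Ns {μ : ℕ} {u v : Ω} (h : u ∈ Nb X μ v) : v ∈ Nb X μ u := by
  rw [mN] at h ⊢
  exact ⟨h.1.symm, by rw [Ds]; exact h.2⟩

theorem Ni {μ : ℕ} (g : X) {u v : Ω} (h : u ∈ Nb X μ v) : g • u ∈ Nb X μ (g • v) := by
  rw [mN] at h ⊢
  exact ⟨fun e => h.1 (MulAction.injective g e), (Di g v u).trans h.2⟩

theorem Nc [IsPretransitive X Ω] (μ : ℕ) (u v : Ω) : #(Nb X μ u) = #(Nb X μ v) := by
  classical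
  have : ∀ u v : Ω, #(Nb X μ u) ≤ #(Nb X μ v) := fun u v => by
    obtain ⟨g, rfl⟩ := exists_smul_eq X u v
    exact card_le_card_of_injOn (g • ·) (fun z hz => Ni g hz) fun _ _ _ _ e => MulAction.injective g e
  exact le_antisymm (this u v) (this v u)

theorem conn [IsPreprimitive X Ω] {μ : ℕ} {a b : Ω} (h : b ∈ Nb X μ a) (x y : Ω) :
    Relation.ReflTransGen (fun u v => v ∈ Nb X μ u) x y := by
  have : Std.Symm fun u v : Ω => v ∈ Nb X μ u := ⟨fun _ _ => Ns⟩
  exact (eqv (X := X) (r := Relation.ReflTransGen fun u v => v ∈ Nb X μ u) ⟨fun _ => .refl, symm, .trans⟩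
    fun g x y h => Relation.ReflTransGen.lift (g • ·) (fun _ _ => Ni g) _ _ h).resolve_left
      (fun h' => (mN.1 h).1 (h' _ _ (.single h))) x y

variable (X) in
/-- walks of length `n` from `z` -/
def Wk (μ : ℕ) (z : Ω) : ℕ → Ω → Prop
  | 0, v => v = z
  | n + 1, v => ∃ u, Wk μ z n u ∧ v ∈ Nb X μ u

theorem Wi {μ : ℕ} {z : Ω} {g : X} (hg : g • z = z) : ∀ n v, Wk X μ z n v → Wk X μ z n (g • v)
  | 0, v, h => by rw [show v = z from h]; exact hg
  | n + 1, v, ⟨u, h1, h2⟩ => ⟨g • u, Wi hg n u h1, Ni g h2⟩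

open Classical in
theorem tree [IsPreprimitive X Ω] {μ : ℕ} {a b : Ω} (h : b ∈ Nb X μ a) (z : Ω) :
    2 * (Fintype.card Ω - 1) ≤ #(univ.filter fun p : Ω × Ω => p.2 ∈ Nb X μ p.1 ∧ ¬ c X z p.1 p.2) := by
  have ex : ∀ v, ∃ n, Wk X μ z n v := fun v => by
    induction conn h z v with
    | refl => exact ⟨0, rfl⟩
    | tail _ e ih => obtain ⟨n, hn⟩ := ih; exact ⟨n + 1, _, hn, e⟩
  let d : Ω → ℕ := fun v => Nat.find (ex v)
  have di : ∀ u v, c X z u v → d v ≤ d u := fun u v ⟨g, g1, g2⟩ =>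
    Nat.find_min' _ (g2 ▸ Wi g1 _ _ (Nat.find_spec (ex u)))
  have par : ∀ v, ∃ u, v ≠ z → v ∈ Nb X μ u ∧ d u < d v := fun v => by
    by_cases e : v = z
    · exact ⟨v, fun h => absurd e h⟩
    have h1 : Wk X μ z (d v) v := Nat.find_spec (ex v)
    rcases hd : d v with _ | n
    · rw [hd] at h1; exact absurd h1 e
    · rw [hd] at h1
      obtain ⟨u, u1, u2⟩ := h1
      exact ⟨u, fun _ => ⟨u2, Nat.lt_succ_of_le (Nat.find_min' _ u1)⟩⟩
  choose π hπ using par
  have c1 : #((univ.erase z).image fun v => (π v, v)) = Fintype.card Ω - 1 := by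
    rw [card_image_of_injective _ fun _ _ e => (Prod.ext_iff.1 e).2, card_erase_of_mem (mem_univ _), card_univ]
  have c2 : #((univ.erase z).image fun v => (v, π v)) = Fintype.card Ω - 1 := by
    rw [card_image_of_injective _ fun _ _ e => (Prod.ext_iff.1 e).1, card_erase_of_mem (mem_univ _), card_univ]
  have dj : Disjoint ((univ.erase z).image fun v => (π v, v)) ((univ.erase z).image fun v => (v, π v)) := by
    rw [disjoint_left]
    intro p h1 h2
    obtain ⟨v, hv, rfl⟩ := mem_image.1 h1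
    obtain ⟨w, hw, e⟩ := mem_image.1 h2
    have e1 : w = π v := (Prod.ext_iff.1 e).1
    have e2 : π w = v := (Prod.ext_iff.1 e).2
    have := (hπ v (ne_of_mem_erase hv)).2
    have := (hπ w (ne_of_mem_erase hw)).2
    rw [e2] at this
    rw [e1] at this
    omega
  rw [two_mul]
  nth_rewrite 1 [← c1]
  rw [← c2, ← card_union_of_disjoint dj]
  refine card_le_card fun p hp => mem_filter.2 ⟨mem_univ _, ?_⟩
  rcases mem_union.1 hp with hp | hp <;> obtain ⟨v, hv, rfl⟩ := mem_image.1 hp <;>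
    have := hπ v (ne_of_mem_erase hv)
  · exact ⟨this.1, fun e => by have : d v ≤ d (π v) := di _ _ e; omega⟩
  · exact ⟨Ns this.1, fun e => by have : d v ≤ d (π v) := di _ _ ((ce z).symm e); omega⟩

theorem val [IsPreprimitive X Ω] {μ : ℕ} {a b : Ω} (h : b ∈ Nb X μ a) :
    2 * (Fintype.card Ω - 1) ≤ #(Nb X μ a) * μ := by
  classical
  have h1 : Fintype.card Ω * (2 * (Fintype.card Ω - 1)) ≤
      ∑ z, #(univ.filter fun p : Ω × Ω => p.2 ∈ Nb X μ p.1 ∧ ¬ c X z p.1 p.2) :=
    le_trans (by simp) (card_nsmul_le_sum univ _ (2 * (Fintype.card Ω - 1)) fun z _ => by convert tree h z)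
  have h2 : ∑ z, #(univ.filter fun p : Ω × Ω => p.2 ∈ Nb X μ p.1 ∧ ¬ c X z p.1 p.2) ≤
      Fintype.card Ω * (#(Nb X μ a) * μ) := by
    simp only [card_filter]
    rw [sum_comm, Fintype.sum_prod_type]
    refine le_trans (sum_le_card_nsmul _ _ (#(Nb X μ a) * μ) fun x _ => ?_) (by simp)
    rw [← Nc μ x a, ← smul_eq_mul, ← sum_const, ← univ_inter (Nb X μ x), ← sum_ite_mem]
    refine sum_le_sum fun y _ => ?_
    split_ifs with e
    · refine le_trans (le_of_eq ?_) (mN.1 e).2
      simp [D, card_filter, e]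
    · simp [e]
  exact Nat.le_of_mul_le_mul_left (h1.trans h2) (Fintype.card_pos_iff.2 ⟨a⟩)

theorem far' [IsPreprimitive X Ω] {μ : ℕ} {a b : Ω} (h : b ∈ Nb X μ a) :
    2 * #(Nb X μ a) + 2 ≤ 3 * μ ∨ ∀ x y : Ω, #(D X x y) ≤ 2 * μ := by
  classical
  let E : Ω → Ω → Prop := fun u v => #(D X u v) ≤ μ
  have Es : ∀ {u v}, E u v → E v u := fun {u v} h => by simpa only [E, Ds v u] using h
  have Ei : ∀ (g : X) {u v}, E u v → E (g • u) (g • v) := fun g {u v} h => (Di g u v).trans h
  have Er : ∀ u, E u u := fun u => by simp [E, D_self]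
  have conn : ∀ x y, Relation.ReflTransGen E x y := fun x y =>
    Relation.ReflTransGen.mono (fun _ _ e => (mN.1 e).2) _ _ (conn h x y)
  have nk : ∀ v, #(univ.filter (E v)) = #(Nb X μ a) + 1 := fun v => by
    rw [← Nc μ v a, ← card_insert_of_notMem (a := v) fun e => (mN.1 e).1 rfl]
    congr 1
    ext u
    rw [mem_insert, mN, mem_filter]
    by_cases e : u = v
    · simp [e, Er]
    · simp [e, Ne.symm e, E]
  by_cases A : ∃ x y u v, E x u ∧ E u v ∧ E v y ∧ ¬ ∃ w, E x w ∧ E w y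
  · left
    obtain ⟨x, y, u, v, h1, h2, h3, h4⟩ := A
    have k1 : #(D X x y) ≤ 3 * μ := by
      have := Dt (X := X) x u y
      have := Dt (X := X) u v y
      simp only [E] at h1 h2 h3
      omega
    have k2 : #(univ.filter (E x)) + #(univ.filter (E y)) ≤ #(D X x y) := by
      rw [← card_union_of_disjoint (disjoint_filter.2 fun z _ p q => h4 ⟨z, p, Es q⟩)]
      refine card_le_card fun z hz => mD.2 fun hc => h4 ⟨z, ?_⟩
      rcases mem_union.1 hz with hz | hz
      · obtain ⟨k, k1, k2⟩ := hc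
        have := Ei k (mem_filter.1 hz).2
        rw [k1, k2] at this
        exact ⟨(mem_filter.1 hz).2, Es this⟩
      · obtain ⟨k, k1, k2⟩ := (ce z).symm hc
        have := Ei k (mem_filter.1 hz).2
        rw [k1, k2] at this
        exact ⟨this, Es (mem_filter.1 hz).2⟩
    have := nk x
    have := nk y
    omega
  · right
    have : ∀ x y, ∃ w, E x w ∧ E w y := by
      intro x y
      induction conn x y with
      | refl => exact ⟨x, Er x, Er x⟩
      | @tail w' w _ e ih =>
        obtain ⟨u, u1, u2⟩ := ih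
        by_contra H
        exact A ⟨x, w, u, w', u1, u2, e, H⟩
    intro x y
    obtain ⟨w, h1, h2⟩ := this x y
    have := Dt (X := X) x w y
    simp only [E] at h1 h2
    omega

open Classical in
theorem avg' [IsPretransitive X Ω] {μ : ℕ} (a : Ω) (h : ∀ x y : Ω, #(D X x y) ≤ 2 * μ) :
    ∃ z : Ω, ∑ x, #(univ.filter fun y => ¬ c X z x y) + #(Nb X μ a) * μ ≤ (Fintype.card Ω - 1) * (2 * μ) := by
  have : Nonempty Ω := ⟨a⟩
  have := exists_le_of_sum_le (s := (univ : Finset Ω))
    (f := fun z => ∑ x, #(univ.filter fun y => ¬ c X z x y) + #(Nb X μ a) * μ)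
    (g := fun _ => (Fintype.card Ω - 1) * (2 * μ)) univ_nonempty ?_
  · obtain ⟨z, -, hz⟩ := this
    exact ⟨z, hz⟩
  rw [sum_add_distrib, sum_comm, ← sum_add_distrib]
  refine sum_le_sum fun x _ => ?_
  simp only [card_filter]
  rw [sum_comm, ← Nc μ x a, ← smul_eq_mul, ← sum_const, ← univ_inter (Nb X μ x), ← sum_ite_mem, ← sum_add_distrib,
    ← card_univ, ← card_erase_of_mem (mem_univ x), ← smul_eq_mul, ← sum_const, ← univ_inter (univ.erase x),
    ← sum_ite_mem]
  refine sum_le_sum fun y _ => ?_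
  have e : (∑ z, if ¬ c X z x y then 1 else 0) = #(D X x y) := by rw [D, card_filter]
  rw [e]
  have := h x y
  by_cases e1 : y ∈ Nb X μ x
  · have := mN.1 e1
    rw [if_pos e1, if_pos (mem_erase.2 ⟨this.1.symm, mem_univ _⟩)]
    omega
  · rw [if_neg e1]
    split_ifs with e2
    · omega
    · have : y = x := by simpa using e2
      simp [this, D_self]

theorem dmin [IsPreprimitive X Ω] (h2 : ¬ IsMultiplyPretransitive X Ω 2) {μ : ℕ} {a b : Ω} (ab : a ≠ b)
    (hD : #(D X a b) ≤ μ) :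
    4 * Fintype.card Ω + 2 * μ ≤ 3 * μ ^ 2 + 4 ∨ Fintype.card Ω ≤ 4 * μ := by
  classical
  have hN : b ∈ Nb X μ a := mN.2 ⟨ab, hD⟩
  have hn : 2 ≤ Fintype.card Ω := Fintype.one_lt_card_iff.2 ⟨_, _, ab⟩
  have v1 := val hN
  rcases far' hN with h | h
  · left
    obtain ⟨N, hN⟩ := Nat.exists_eq_add_of_le' (show 1 ≤ Fintype.card Ω by omega)
    rw [hN] at v1 ⊢
    rw [Nat.add_sub_cancel] at v1
    nlinarith [Nat.mul_le_mul_right μ h]
  obtain ⟨z, hz⟩ := avg' a h
  rw [Nc μ a z] at hz v1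
  set n := Fintype.card Ω with hnn
  have cp : ∀ x, #(univ.filter fun y => ¬ c X z x y) + #(O X z x) = n := fun x => by
    have := card_filter_add_card_filter_not (s := (univ : Finset Ω)) (c X z x)
    rw [add_comm]
    convert this using 2 <;> rfl
  by_cases big : ∃ w, n < 2 * #(O X z w)
  swap
  · push Not at big
    have : n * n ≤ 2 * ∑ x, #(univ.filter fun y => ¬ c X z x y) := by
      rw [mul_sum]
      refine le_trans (by simp [hnn]) (card_nsmul_le_sum univ _ n fun x _ => ?_)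
      have := cp x
      have := big x
      omega
    have h3 : (n - 1) * (2 * μ) ≤ n * (2 * μ) := Nat.mul_le_mul_right _ (by omega)
    exact Or.inr (Nat.le_of_mul_le_mul_left (c := n) (by nlinarith)
      (Fintype.card_pos_iff.2 ⟨a⟩))
  obtain ⟨w, hw⟩ := big
  let r : Ω → Ω → Prop := fun x y => 2 * #(O X x y) ≤ n
  let S : Ω → Finset Ω := fun x => univ.filter (r x)
  have mS : ∀ {x y}, y ∈ S x ↔ r x y := fun {x y} => by simp [S]
  have ri : ∀ (g : X) x y, r x y → r (g • x) (g • y) := fun g x y h => by simpa only [r, Oi] using h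
  have rr : ∀ x, r x x := fun x => by
    have : #(O X x x) ≤ 1 := card_le_one.2 fun u hu v hv => by
      obtain ⟨k, k1, k2⟩ := mO.1 hu
      obtain ⟨l, l1, l2⟩ := mO.1 hv
      rw [← k2, ← l2, k1, l1]
    simp only [r]
    omega
  have Sc : ∀ x, #(S x) = #(S z) := fun x => by
    obtain ⟨g, rfl⟩ := exists_smul_eq X z x
    refine le_antisymm (le_of g⁻¹ fun y h => ?_) (le_of g fun y h => ri g _ _ h)
    simpa using ri g⁻¹ _ _ h
  have Oe : ∀ {x y}, c X z x y → O X z x = O X z y := fun {x y} h => by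
    ext v
    rw [mO, mO]
    exact ⟨(ce z).trans ((ce z).symm h), (ce z).trans h⟩
  have bg : ∀ {x}, ¬ r z x ↔ c X z w x := fun {x} => by
    constructor
    · intro hx
      by_contra H
      have : Disjoint (O X z w) (O X z x) := disjoint_left.2 fun v p q =>
        H ((ce z).trans (mO.1 p) ((ce z).symm (mO.1 q)))
      have h1 := card_union_of_disjoint this
      have := card_le_univ (O X z w ∪ O X z x)
      simp only [r] at hx
      omega
    · intro hx
      simp only [r, ← Oe hx]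
      omega
  have st : #(S z) + #(O X z w) = n := by
    have := card_filter_add_card_filter_not (s := (univ : Finset Ω)) (r z)
    rw [show O X z w = univ.filter (¬ r z ·) by ext x; simp [mO, bg]]
    exact this
  have k1 : 2 * (#(S z) * #(O X z w)) ≤ ∑ x, #(univ.filter fun y => ¬ c X z x y) := by
    rw [← sum_filter_add_sum_filter_not univ (r z)]
    have a1 : #(S z) * #(O X z w) ≤ ∑ x ∈ univ.filter (r z), #(univ.filter fun y => ¬ c X z x y) := by
      refine card_nsmul_le_sum _ _ _ fun x hx => card_le_card fun y hy => mem_filter.2 ⟨mem_univ _, fun H => ?_⟩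
      exact bg.2 ((ce z).trans (mO.1 hy) ((ce z).symm H)) (mem_filter.1 hx).2
    have a2 : #(O X z w) * #(S z) ≤ ∑ x ∈ univ.filter (¬ r z ·), #(univ.filter fun y => ¬ c X z x y) := by
      have : O X z w = univ.filter (¬ r z ·) := by
        ext x
        simp [mO, bg]
      rw [this]
      refine card_nsmul_le_sum _ _ _ fun x hx => card_le_card fun y hy => mem_filter.2 ⟨mem_univ _, fun H => ?_⟩
      exact bg.2 ((ce z).trans (bg.1 (mem_filter.1 hx).2) H) (mS.1 hy)
    nlinarith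
  have k2 : n ≤ #(S z) * #(S z) := by
    by_cases T : ∃ y y', r z y ∧ r y y' ∧ ¬ r z y'
    · obtain ⟨y, y', p1, p2, p3⟩ := T
      refine le_trans (card_le_card (t := (S z).biUnion S) fun v _ => mem_biUnion.2 ?_)
        (card_biUnion_le_card_mul _ _ _ fun u _ => (Sc u).le)
      by_cases hv : r z v
      · exact ⟨z, mS.2 (rr z), mS.2 hv⟩
      · obtain ⟨k, k1, k2⟩ := (ce z).trans ((ce z).symm (bg.1 p3)) (bg.1 hv)
        exact ⟨k • y, mS.2 (k1 ▸ ri k _ _ p1), mS.2 (k2 ▸ ri k _ _ p2)⟩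
    · exfalso
      have tr : ∀ {x y y'}, r x y → r y y' → r x y' := fun {x y y'} p q => by
        obtain ⟨g, rfl⟩ := exists_smul_eq X z x
        by_contra H
        refine T ⟨g⁻¹ • y, g⁻¹ • y', by simpa using ri g⁻¹ _ _ p, ri g⁻¹ _ _ q, fun H' => H ?_⟩
        simpa using ri g _ _ H'
      have sy : ∀ {x y}, r x y → r y x := fun {x y} p => by
        have : S y = S x := eq_of_subset_of_card_le (fun v hv => mS.2 (tr p (mS.1 hv))) (by rw [Sc x, Sc y])
        exact mS.1 (this ▸ mS.2 (rr x))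
      rcases eqv ⟨rr, sy, tr⟩ ri with H | H
      · refine h2 (is_two_pretransitive_iff.2 fun {a b a' b'} p q => ?_)
        obtain ⟨g, g1⟩ := exists_smul_eq X a z
        obtain ⟨g', g2⟩ := exists_smul_eq X a' z
        have e1 : ¬ r z (g • b) := fun e => p (MulAction.injective g (g1.trans (H _ _ e)))
        have e2 : ¬ r z (g' • b') := fun e => q (MulAction.injective g' (g2.trans (H _ _ e)))
        obtain ⟨k, k1, k2⟩ := (ce z).trans ((ce z).symm (bg.1 e1)) (bg.1 e2)
        exact ⟨g'⁻¹ * k * g, by rw [mul_smul, mul_smul, g1, k1, ← g2, inv_smul_smul],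
          by rw [mul_smul, mul_smul, k2, inv_smul_smul]⟩
      · exact bg.2 ((ce z).refl w) (H z w)
  have k3 : #(Nb X μ z) + 1 ≤ #(S z) ∨ #(O X z w) ≤ #(Nb X μ z) := by
    by_cases T : ∃ y ∈ Nb X μ z, ¬ r z y
    · right
      obtain ⟨y, y1, y2⟩ := T
      refine card_le_card fun v hv => ?_
      obtain ⟨k, k1, k2⟩ := (ce z).trans ((ce z).symm (bg.1 y2)) (mO.1 hv)
      have := Ni k y1
      rwa [k1, k2] at this
    · left
      push Not at T
      rw [← card_insert_of_notMem (a := z) fun e => (mN.1 e).1 rfl]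
      refine card_le_card fun v hv => mS.2 ?_
      rcases mem_insert.1 hv with rfl | hv
      · exact rr _
      · exact T v hv
  generalize #(S z) = s at *
  generalize #(O X z w) = t at *
  generalize #(Nb X μ z) = k at *
  generalize ∑ x, #(univ.filter fun y => ¬ c X z x y) = e at *
  by_contra! H
  obtain ⟨H1, H2⟩ := H
  clear_value n
  obtain ⟨N, rfl⟩ := Nat.exists_eq_add_of_le' (show 1 ≤ n by omega)
  rw [Nat.add_sub_cancel] at hz v1
  rcases k3 with k3 | k3
  · have a1 : s * t + N ≤ N * μ := by nlinarith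
    have a2 : 2 * N + μ ≤ s * μ := by nlinarith [Nat.mul_le_mul_right μ k3]
    have a3 : s + 3 ≤ 2 * μ := by
      by_contra! q
      have : (2 * μ - 2) * t ≤ s * t := Nat.mul_le_mul_right _ (by omega)
      obtain ⟨m, rfl⟩ := Nat.exists_eq_add_of_le' (show 1 ≤ μ by by_contra; simp [show μ = 0 by omega] at a1; omega)
      rw [show 2 * (m + 1) - 2 = 2 * m by omega] at this
      rcases Nat.eq_zero_or_pos m with rfl | m0
      · nlinarith
      nlinarith [Nat.mul_le_mul_left m (show N + 2 ≤ 2 * t by omega)]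
    have a4 : 3 * μ + 1 ≤ 2 * s := by
      by_contra! q
      nlinarith [Nat.mul_le_mul_right μ (show 2 * s ≤ 3 * μ by omega)]
    obtain ⟨u, hu⟩ := Nat.exists_eq_add_of_le (show μ ≤ s + 1 by omega)
    have a5 : N * u + s ≤ s * s := by
      have : t + s = N + 1 := by omega
      nlinarith
    have a6 : s ≤ 3 * u := by omega
    have a7 : N * s ≤ 3 * (s * s) - 3 * s := by nlinarith [Nat.mul_le_mul_left N a6, Nat.sub_add_cancel (show 3 * s ≤ 3 * (s * s) by nlinarith)]
    have a8 : N + 3 ≤ 3 * s := by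
      by_contra! q
      have : (3 * s - 2) * s ≤ N * s := Nat.mul_le_mul_right _ (by omega)
      obtain ⟨m, rfl⟩ := Nat.exists_eq_add_of_le' (show 1 ≤ s by omega)
      rw [show 3 * (m + 1) - 2 = 3 * m + 1 by omega] at this
      rw [show 3 * ((m + 1) * (m + 1)) - 3 * (m + 1) = 3 * (m * (m + 1)) by ring_nf; omega] at a7
      nlinarith
    obtain ⟨m, rfl⟩ := Nat.exists_eq_add_of_le (show 7 ≤ μ by omega)
    nlinarith
  · have a1 : 2 * (s * t) + t * μ ≤ N * (2 * μ) := by nlinarith [Nat.mul_le_mul_right μ k3]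
    have a0 : N + 1 = s + t := by omega
    have a2 : s < μ := by
      by_contra! q
      have b1 : μ * t ≤ s * t := Nat.mul_le_mul_right _ q
      have b2 : s * (2 * μ + 1) ≤ s * t := Nat.mul_le_mul_left _ (by omega)
      nlinarith
    have a3 : 4 * s ≤ 3 * μ := by
      by_contra! q
      obtain ⟨u, hu⟩ := Nat.exists_eq_add_of_le (show μ ≤ 2 * s by omega)
      have b2 : u * (3 * μ + 2) ≤ u * t := Nat.mul_le_mul_left _ (by omega)
      nlinarith
    nlinarith [Nat.mul_le_mul a3 a3]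

end Cfsg.Agent.H1.Ch
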