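import Cfsg.Agent.H1.Ch.Bd
import Cfsg.Agent.H2.NU0

/-! The lower bound of the distinguishing sets in the form of the arithmetic statement. -/

set_option autoImplicit false

namespace Cfsg.Agent.H1.Ch

open MulAction Finset H2.Bab

variable {X Ω : Type} [Group X] [MulAction X Ω]

theorem dmin' [Finite Ω] [IsPreprimitive X Ω] (h2 : ¬ IsMultiplyPretransitive X Ω 2) {μ : ℕ} {a b : Ω}
    (ab : a ≠ b) (hD : {z : Ω | ∀ x : X, x • z = z → x • a ≠ b}.ncard ≤ μ) :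
    4 * (Nat.card Ω - 1) ≤ μ * (3 * μ - 2) ∨ Nat.card Ω ≤ 4 * μ := by
  classical
  have := Fintype.ofFinite Ω
  have e : #(D X a b) = {z : Ω | ∀ x : X, x • z = z → x • a ≠ b}.ncard := by
    rw [← Set.ncard_coe_finset]
    congr 1
    ext z
    simp [mD, c]
  rw [Nat.card_eq_fintype_card]
  refine (dmin h2 ab (e ▸ hD)).imp (fun h => ?_) id
  rcases μ with _ | μ
  · omega
  · rw [show 3 * (μ + 1) - 2 = 3 * μ + 1 by omega]
    have : 4 * (Fintype.card Ω - 1) + 4 ≤ (μ + 1) * (3 * μ + 1) + 4 := by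
      have : 1 ≤ Fintype.card Ω := Fintype.card_pos_iff.2 ⟨a⟩
      obtain ⟨N, hN⟩ := Nat.exists_eq_add_of_le' this
      rw [hN] at h ⊢
      rw [Nat.add_sub_cancel]
      nlinarith
    omega

theorem dm [Finite Ω] [IsPreprimitive X Ω] (h2 : ¬ IsMultiplyPretransitive X Ω 2) {d : ℕ}
    (hd : H2.NU.Dm (Nat.card Ω) d) (u v : Ω) (uv : u ≠ v) :
    d ≤ {z : Ω | ∀ x : X, x • z = z → x • u ≠ v}.ncard :=
  hd _ (dmin' h2 uv le_rfl)

/-- an element of the closure moving a point moves at least `d` points -/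
theorem dm_supp [Finite Ω] [IsPreprimitive X Ω] (h2 : ¬ IsMultiplyPretransitive X Ω 2) {d : ℕ}
    (hd : H2.NU.Dm (Nat.card Ω) d) (g : Ω → Ω) (hg : ∀ z u, ∃ x : X, x • z = g z ∧ x • u = g u) (a : Ω)
    (ha : g a ≠ a) : d ≤ {z : Ω | g z ≠ z}.ncard := by
  refine (dm h2 hd a (g a) ha.symm).trans (Set.ncard_le_ncard (fun z hz e => ?_) (Set.toFinite _))
  obtain ⟨x, h1, h2⟩ := hg z a
  exact hz x (h1.trans e) h2

end Cfsg.Agent.H1.Ch
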